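import Mathlib

/-! Coprime averaging: invariant complements in abelian groups. -/

set_option autoImplicit false

namespace Cfsg.Agent.Lib.PLocal

theorem exists_invariant_complement_aux {V A : Type*} [CommGroup V] [Finite V] [Group A] [Finite A]
    (ρ : A →* MulAut V) (hcop : (Nat.card A).Coprime (Nat.card V)) (U W : Subgroup V)
    (hU : ∀ a, ∀ u ∈ U, ρ a u ∈ U) (hUW : U ⊓ W = ⊥) (hUWV : U ⊔ W = ⊤) :
    ∃ W' : Subgroup V, (∀ a, ∀ w ∈ W', ρ a w ∈ W') ∧ U ⊓ W' = ⊥ ∧ U ⊔ W' = ⊤ := by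
  classical
  haveI := Fintype.ofFinite A
  have h : ∀ v : V, ∃ u ∈ U, ∃ w ∈ W, u * w = v := fun v => by
    have hv : v ∈ U ⊔ W := by rw [hUWV]; trivial
    exact Subgroup.mem_sup.mp hv
  choose pu hpu pw hpw hpuw using h
  have huniq : ∀ u ∈ U, ∀ w ∈ W, ∀ u' ∈ U, ∀ w' ∈ W, u * w = u' * w' → u = u' := by
    intro u hu w hw u' hu' w' hw' he
    have h1 : u'⁻¹ * u = w' * w⁻¹ := by
      rw [inv_mul_eq_iff_eq_mul, ← mul_assoc, ← he]
      rw [mul_assoc, mul_inv_cancel, mul_one]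
    have h2 : u'⁻¹ * u ∈ U ⊓ W := Subgroup.mem_inf.mpr ⟨mul_mem (inv_mem hu') hu, h1 ▸ mul_mem hw' (inv_mem hw)⟩
    rw [hUW, Subgroup.mem_bot] at h2
    exact (inv_mul_eq_one.mp h2).symm
  have hmul : ∀ x y, pu (x * y) = pu x * pu y := by
    intro x y
    refine huniq _ (hpu _) _ (hpw (x * y)) _ (mul_mem (hpu x) (hpu y)) (pw x * pw y) (mul_mem (hpw x) (hpw y)) ?_
    rw [hpuw]
    calc x * y = (pu x * pw x) * (pu y * pw y) := by rw [hpuw, hpuw]
      _ = pu x * pu y * (pw x * pw y) := by rw [mul_mul_mul_comm]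
  have hfix : ∀ u ∈ U, pu u = u := by
    intro u hu
    exact huniq _ (hpu u) _ (hpw u) u hu 1 (one_mem _) (by rw [hpuw, mul_one])
  let F : V → V := fun v => ∏ a : A, ρ a (pu (ρ a⁻¹ v))
  have Fmul : ∀ x y, F (x * y) = F x * F y := by
    intro x y
    simp only [F, map_mul, hmul, Finset.prod_mul_distrib]
  let F' : V →* V := MonoidHom.mk' F Fmul
  have Feq : ∀ (b : A) v, F (ρ b v) = ρ b (F v) := by
    intro b v
    simp only [F, map_prod]
    refine Fintype.prod_equiv (Equiv.mulLeft b⁻¹) _ _ fun a => ?_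
    simp only [Equiv.coe_mulLeft, map_mul, MulAut.mul_apply, map_inv, mul_inv_rev, inv_inv,
      MulAut.apply_inv_self, MulAut.inv_apply_self]
  have Fmem : ∀ v, F v ∈ U := fun v =>
    Subgroup.prod_mem _ fun a _ => hU a _ (hpu _)
  have Fu : ∀ u ∈ U, F u = u ^ Nat.card A := by
    intro u hu
    have : ∀ a : A, ρ a (pu (ρ a⁻¹ u)) = u := by
      intro a
      rw [hfix _ (hU _ _ hu), map_inv, MulAut.apply_inv_self]
    simp only [F, this, Finset.prod_const, Finset.card_univ, Nat.card_eq_fintype_card]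
  refine ⟨F'.ker, ?_, ?_, ?_⟩
  · intro a w hw
    rw [MonoidHom.mem_ker] at hw ⊢
    have hw' : F w = 1 := hw
    show F (ρ a w) = 1
    rw [Feq, hw', map_one]
  · rw [eq_bot_iff]
    intro u hu
    obtain ⟨hu1, hu2⟩ := Subgroup.mem_inf.mp hu
    have h1 : F u = 1 := hu2
    rw [Fu u hu1] at h1
    have h2 : orderOf u ∣ Nat.card A := orderOf_dvd_of_pow_eq_one h1
    have h3 : orderOf u ∣ Nat.card V := orderOf_dvd_natCard u
    have h4 := Nat.Coprime.eq_one_of_dvd (hcop.coprime_dvd_left h2) h3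
    exact Subgroup.mem_bot.mpr (orderOf_eq_one_iff.mp h4)
  · rw [eq_top_iff]
    intro v _
    have hco : (Nat.card A).Coprime (orderOf (F v)) :=
      Nat.Coprime.coprime_dvd_right (orderOf_dvd_natCard _) hcop
    obtain ⟨m, hm⟩ := exists_pow_eq_self_of_coprime hco
    have hu : F v ^ m ∈ U := pow_mem (Fmem v) m
    have h1 : F (F v ^ m) = F v := by
      rw [Fu _ hu, ← pow_mul, mul_comm, pow_mul, hm]
    have h2 : (F v ^ m)⁻¹ * v ∈ F'.ker := by
      rw [MonoidHom.mem_ker, map_mul, map_inv]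
      show (F (F v ^ m))⁻¹ * F v = 1
      rw [h1, inv_mul_cancel]
    have e : v = F v ^ m * ((F v ^ m)⁻¹ * v) := by rw [mul_inv_cancel_left]
    rw [e]
    exact Subgroup.mul_mem_sup hu h2

/-- Coprime averaging in subgroup language. -/
theorem exists_invariant_complement {G : Type*} [Group G] [Finite G] (V A U : Subgroup G) (hVab : IsMulCommutative V)
    (hAV : A ≤ Subgroup.normalizer (V : Set G)) (hcop : (Nat.card A).Coprime (Nat.card V)) (hUV : U ≤ V)
    (hAU : A ≤ Subgroup.normalizer (U : Set G)) (W : Subgroup G) (hWV : W ≤ V) (hUW : U ⊓ W = ⊥) (hUWV : U ⊔ W = V) :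
    ∃ W' : Subgroup G, W' ≤ V ∧ A ≤ Subgroup.normalizer (W' : Set G) ∧ U ⊓ W' = ⊥ ∧ U ⊔ W' = V := by
  letI : CommGroup V := { (inferInstance : Group V) with mul_comm := fun x y => hVab.is_comm.comm x y }
  let ρ : A →* MulAut V := (Subgroup.normalizerMonoidHom V).comp (Subgroup.inclusion hAV)
  have hρ : ∀ (a : A) (v : V), ((ρ a v : V) : G) = a * v * (a : G)⁻¹ := fun a v => rfl
  have hmapU : (U.subgroupOf V).map V.subtype = U := by
    rw [Subgroup.subgroupOf_map_subtype, inf_eq_left.mpr hUV]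
  have hmapW : (W.subgroupOf V).map V.subtype = W := by
    rw [Subgroup.subgroupOf_map_subtype, inf_eq_left.mpr hWV]
  have hinj : Function.Injective V.subtype := V.subtype_injective
  obtain ⟨W₀, h1, h2, h3⟩ := exists_invariant_complement_aux ρ hcop (U.subgroupOf V) (W.subgroupOf V)
    (fun a u hu => by
      rw [Subgroup.mem_subgroupOf, hρ]
      exact (Subgroup.mem_normalizer_iff.mp (hAU a.2) u).mp hu)
    (by
      apply Subgroup.map_injective hinj
      rw [Subgroup.map_inf _ _ _ hinj, hmapU, hmapW, hUW, Subgroup.map_bot])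
    (by
      apply Subgroup.map_injective hinj
      rw [Subgroup.map_sup, hmapU, hmapW, hUWV, ← MonoidHom.range_eq_map, Subgroup.range_subtype])
  refine ⟨W₀.map V.subtype, Subgroup.map_subtype_le _, ?_, ?_, ?_⟩
  · intro a ha
    rw [Subgroup.mem_normalizer_iff]
    have key : ∀ b ∈ A, ∀ y ∈ W₀.map V.subtype, b * y * b⁻¹ ∈ W₀.map V.subtype := by
      rintro b hb _ ⟨w, hw, rfl⟩
      exact ⟨ρ ⟨b, hb⟩ w, h1 _ _ hw, hρ ⟨b, hb⟩ w⟩
    intro y
    refine ⟨key a ha y, fun hy => ?_⟩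
    have := key a⁻¹ (inv_mem ha) _ hy
    simpa [mul_assoc] using this
  · have : U = (U.subgroupOf V).map V.subtype := hmapU.symm
    rw [this, ← Subgroup.map_inf _ _ _ hinj, h2, Subgroup.map_bot]
  · have : U = (U.subgroupOf V).map V.subtype := hmapU.symm
    rw [this, ← Subgroup.map_sup, h3, ← MonoidHom.range_eq_map, Subgroup.range_subtype]

end Cfsg.Agent.Lib.PLocal
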