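import Cfsg.Agent.Lib.PLocal.ZJ2
import Cfsg.Agent.Lib.PLocal.Factor
import Cfsg.Agent.Lib.Transfer.Special
import Mathlib

/-! The ZJ-theorem for the centre of the Thompson subgroup defined by elementary abelian subgroups of
largest order. -/

set_option autoImplicit false

namespace Cfsg.Agent.Lib.PLocal

open Cfsg Cfsg.Agent.Lib.Transfer Cfsg.Agent.Lib.Core Cfsg.Agent.Lib.Techniques
open scoped commutatorElement

variable {G : Type*} [Group G]

theorem thompsonOf_eq_sSup (p : ℕ) (T : Subgroup G) :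
    thompsonSubgroupOf p T = sSup (maxFam (eaProp p : Subgroup G → Prop) T) := by
  rw [thompsonSubgroupOf, thompsonSubgroup, ← image_maxEA, sSup_image]
  exact (Subgroup.gc_map_comap _).l_sSup

theorem maxFam_le_thompsonOf {p : ℕ} {T A : Subgroup G} (hA : A ∈ maxFam (eaProp p : Subgroup G → Prop) T) :
    A ≤ thompsonSubgroupOf p T := by
  rw [thompsonOf_eq_sSup]
  exact le_sSup hA

/-- An element of order dividing `p` commuting with a maximal elementary abelian subgroup lies in it. -/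
theorem mem_of_maxFam_ea [Finite G] {p : ℕ} {T A : Subgroup G} (hA : A ∈ maxFam (eaProp p : Subgroup G → Prop) T)
    {z : G} (hzT : z ∈ T) (hzp : z ^ p = 1) (hcomm : ∀ a ∈ A, a * z = z * a) : z ∈ A := by
  set Z := Subgroup.closure ({z} : Set G) with hZ
  have hcomm' : ∀ a ∈ (A : Set G) ∪ {z}, ∀ b ∈ (A : Set G) ∪ {z}, a * b = b * a := by
    rintro a (ha | ha) b (hb | hb)
    · exact ea_comm hA.2.1 ha hb
    · rw [Set.mem_singleton_iff.mp hb]; exact hcomm a ha
    · rw [Set.mem_singleton_iff.mp ha]; exact (hcomm b hb).symm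
    · rw [Set.mem_singleton_iff.mp ha, Set.mem_singleton_iff.mp hb]
  have hsup : A ⊔ Z = Subgroup.closure ((A : Set G) ∪ {z}) := by
    rw [Subgroup.closure_union, Subgroup.closure_eq]
  have h3 : IsMulCommutative ↥(A ⊔ Z) := by
    rw [hsup]
    exact Subgroup.isMulCommutative_closure hcomm'
  have h4 : A ⊔ Z ≤ T := by
    refine sup_le hA.1 ?_
    rw [hZ, Subgroup.closure_le]
    intro w hw
    rw [Set.mem_singleton_iff.mp hw]
    exact hzT
  have hpow : ∀ x ∈ A ⊔ Z, x ^ p = 1 := by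
    intro x hx
    rw [hsup] at hx
    induction hx using Subgroup.closure_induction with
    | mem x hx =>
      rcases hx with hx | hx
      · exact hA.2.1.2 x hx
      · rw [Set.mem_singleton_iff.mp hx]; exact hzp
    | one => simp
    | mul a b ha hb iha ihb =>
      have hc : Commute a b := ab_comm h3 (hsup ▸ ha) (hsup ▸ hb)
      rw [hc.mul_pow, iha, ihb, one_mul]
    | inv a _ iha => rw [inv_pow, iha, inv_one]
  have h5 := hA.2.2 _ h4 ⟨h3, hpow⟩
  have h6 : A = A ⊔ Z := Subgroup.eq_of_le_of_card_ge le_sup_left h5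
  rw [h6]
  exact (le_sup_right : Z ≤ _) (Subgroup.subset_closure rfl)

theorem mem_normalizer_center_inf {J : Subgroup G} {n : G} (hn : n ∈ Subgroup.normalizer (J : Set G)) :
    n ∈ Subgroup.normalizer ((J ⊓ Subgroup.centralizer (J : Set G) : Subgroup G) : Set G) := by
  rw [Subgroup.mem_normalizer_iff] at hn ⊢
  have hcen : ∀ m : G, (∀ h, h ∈ J ↔ m * h * m⁻¹ ∈ J) → ∀ z, z ∈ Subgroup.centralizer (J : Set G) →
      m * z * m⁻¹ ∈ Subgroup.centralizer (J : Set G) := by
    intro m hm z hz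
    rw [Subgroup.mem_centralizer_iff] at hz ⊢
    intro j hj
    have hj' : m⁻¹ * j * m ∈ J := by
      rw [hm]
      have e : m * (m⁻¹ * j * m) * m⁻¹ = j := by group
      rw [e]; exact hj
    have h1 := hz _ hj'
    calc j * (m * z * m⁻¹) = m * ((m⁻¹ * j * m) * z) * m⁻¹ := by group
      _ = m * (z * (m⁻¹ * j * m)) * m⁻¹ := by rw [h1]
      _ = _ := by group
  have hinv : ∀ h, h ∈ J ↔ n⁻¹ * h * n⁻¹⁻¹ ∈ J := by
    intro h
    rw [hn (n⁻¹ * h * n⁻¹⁻¹)]
    have e : n * (n⁻¹ * h * n⁻¹⁻¹) * n⁻¹ = h := by group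
    rw [e]
  intro h
  simp only [Subgroup.mem_inf]
  constructor
  · rintro ⟨h1, h2⟩
    exact ⟨(hn h).mp h1, hcen n hn h h2⟩
  · rintro ⟨h1, h2⟩
    refine ⟨(hn h).mpr h1, ?_⟩
    have := hcen n⁻¹ hinv _ h2
    have e : n⁻¹ * (n * h * n⁻¹) * n⁻¹⁻¹ = h := by group
    rwa [e] at this

variable [Finite G] {p : ℕ} [Fact p.Prime]

/-- Frattini argument for the Thompson subgroup. -/
theorem frattini_thompson (T : Sylow p G) (C : Subgroup G) [C.Normal] (hJC : thompsonSubgroupOf p (T : Subgroup G) ≤ C)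
    (g : G) : ∃ c ∈ C, ∃ n ∈ Subgroup.normalizer (thompsonSubgroupOf p (T : Subgroup G) : Set G), g = c * n := by
  obtain ⟨c, hc, n, hn, rfl⟩ := exists_mul_normalizer_inf T C C le_rfl (fun d hd => ⟨1, one_mem _, d, hd, by simp⟩) g
  refine ⟨c, hc, n, ?_, rfl⟩
  have h1 := mem_normalizer_thompsonOf (p := p) hn
  rwa [thompsonOf_eq_of_between inf_le_left (le_inf (thompsonOf_le _) hJC)] at h1

/-- The first, general part of the proof of the ZJ-theorem. -/
theorem zj_first (T : Sylow p G) {Z₀ : Subgroup G} (hZcomm : ∀ x ∈ Z₀, ∀ y ∈ Z₀, x * y = y * x)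
    (hTN : ∀ t ∈ (T : Subgroup G), t ∈ Subgroup.normalizer (Z₀ : Set G)) (hZT : Z₀ ≤ T)
    (hc : Subgroup.centralizer (pCore p G : Set G) ≤ pCore p G)
    (hst : ∀ (W : Subgroup G) [W.Normal], IsPGroup p W → ∀ a ∈ (T : Subgroup G),
      ⁅⁅W, Subgroup.zpowers a⁆, Subgroup.zpowers a⁆ = ⊥ →
      (QuotientGroup.mk a : G ⧸ Subgroup.centralizer (W : Set G)) ∈ pCore p (G ⧸ Subgroup.centralizer (W : Set G)))
    (hnn : ¬ Z₀.Normal) :
    ∃ X : Subgroup G, X ≤ Z₀ ∧ pCore p G ≤ Subgroup.normalizer (X : Set G) ∧ ¬ X ≤ Z₀.normalCore ∧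
      (∀ X' : Subgroup G, X' ≤ Z₀ → pCore p G ≤ Subgroup.normalizer (X' : Set G) → ¬ X' ≤ Z₀.normalCore →
        Nat.card X ≤ Nat.card X') ∧
      ⁅Subgroup.normalClosure ((X ⊔ Z₀.normalCore : Subgroup G) : Set G),
        Subgroup.normalClosure ((X ⊔ Z₀.normalCore : Subgroup G) : Set G)⁆ ≤ Z₀.normalCore ∧
      Subgroup.normalClosure ((X ⊔ Z₀.normalCore : Subgroup G) : Set G) ≤ pCore p G ∧
      (∀ n ∈ Z₀.normalCore, ∀ w ∈ Subgroup.normalClosure ((X ⊔ Z₀.normalCore : Subgroup G) : Set G), n * w = w * n) := by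
  classical
  set Q := pCore p G with hQ
  have hQn : Q.Normal := inferInstance
  have hQT : Q ≤ T := pCore_le_sylow T
  have hQp : IsPGroup p Q := pCore_isPGroup p G
  have hZQ : Z₀ ≤ Q := by
    intro z hz
    have hzT : z ∈ (T : Subgroup G) := hZT hz
    apply pCore_of_stab hc
    apply hst Q hQp z hzT
    rw [eq_bot_iff]
    have h1 : ⁅Q, Subgroup.zpowers z⁆ ≤ Z₀ := by
      rw [Subgroup.commutator_le]
      rintro q hq _ ⟨i, rfl⟩
      have hzi : z ^ i ∈ Z₀ := zpow_mem hz i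
      have e : ⁅q, z ^ i⁆ = (q * z ^ i * q⁻¹) * (z ^ i)⁻¹ := by rw [commutatorElement_def]
      show ⁅q, z ^ i⁆ ∈ Z₀
      rw [e]
      exact mul_mem (conj_mem_of_mem_normalizer (hTN q (hQT hq)) hzi) (inv_mem hzi)
    have h2 : ⁅Z₀, Subgroup.zpowers z⁆ = ⊥ := comm_zpowers_eq_bot_of_commute fun a ha => hZcomm a ha z hz
    rw [← h2]
    exact Subgroup.commutator_mono h1 le_rfl
  set N := Z₀.normalCore with hN
  have hNn : N.Normal := inferInstance
  have hNZ : N ≤ Z₀ := Subgroup.normalCore_le Z₀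
  have hZN : ¬ Z₀ ≤ N := by
    intro h
    apply hnn
    have : Z₀ = N := le_antisymm h hNZ
    rw [this]
    exact hNn
  -- a minimal `X`
  let F := {X : Subgroup G // X ≤ Z₀ ∧ Q ≤ Subgroup.normalizer (X : Set G) ∧ ¬ X ≤ N}
  haveI : Nonempty F := ⟨⟨Z₀, le_rfl, fun q hq => hTN q (hQT hq), hZN⟩⟩
  obtain ⟨⟨X, hXZ, hXQ, hXN⟩, hmin⟩ := Finite.exists_min (fun X : F => Nat.card (X : Subgroup G))
  have hZhQ : ∀ h : G, conjS h Z₀ ≤ Q := by
    intro h y hy
    obtain ⟨z, hz, rfl⟩ := hy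
    exact hQn.conj_mem z (hZQ hz) h
  have hZhN : ∀ h : G, ∀ q ∈ Q, q ∈ Subgroup.normalizer ((conjS h Z₀ : Subgroup G) : Set G) := by
    intro h q hq
    rw [conj_normalizer, mem_conjS]
    apply hTN
    apply hQT
    have := hQn.conj_mem q hq h⁻¹
    simpa using this
  have hZhcomm : ∀ h : G, ∀ x ∈ conjS h Z₀, ∀ y ∈ conjS h Z₀, x * y = y * x := by
    rintro h _ ⟨x, hx, rfl⟩ _ ⟨y, hy, rfl⟩
    have := hZcomm x hx y hy
    show h * x * h⁻¹ * (h * y * h⁻¹) = h * y * h⁻¹ * (h * x * h⁻¹)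
    calc h * x * h⁻¹ * (h * y * h⁻¹) = h * (x * y) * h⁻¹ := by group
      _ = h * (y * x) * h⁻¹ := by rw [this]
      _ = _ := by group
  have hf7 : ∀ h : G, ∀ x ∈ X, ∀ y ∈ conjS h Z₀, ⁅x, y⁆ ∈ N := by
    intro h x hx y hy
    by_cases hcase : X ⊓ conjS h Z₀ ≤ N
    · apply hcase
      refine Subgroup.mem_inf.mpr ⟨?_, ?_⟩
      · have e : ⁅x, y⁆ = x * (y * x⁻¹ * y⁻¹) := by rw [commutatorElement_def]; group
        rw [e]
        exact mul_mem hx (conj_mem_of_mem_normalizer (hXQ (hZhQ h hy)) (inv_mem hx))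
      · have e : ⁅x, y⁆ = (x * y * x⁻¹) * y⁻¹ := by rw [commutatorElement_def]
        rw [e]
        exact mul_mem (conj_mem_of_mem_normalizer (hZhN h x (hZQ (hXZ hx))) hy) (inv_mem hy)
    · have hin : Q ≤ Subgroup.normalizer (((X ⊓ conjS h Z₀ : Subgroup G)) : Set G) := by
        intro q hq
        apply mem_normalizer_of_conj_mem
        intro u hu
        exact Subgroup.mem_inf.mpr ⟨conj_mem_of_mem_normalizer (hXQ hq) (Subgroup.mem_inf.mp hu).1,
          conj_mem_of_mem_normalizer (hZhN h q hq) (Subgroup.mem_inf.mp hu).2⟩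
      have h1 := hmin ⟨X ⊓ conjS h Z₀, inf_le_left.trans hXZ, hin, hcase⟩
      have hle : X ⊓ conjS h Z₀ = X := Subgroup.eq_of_le_of_card_ge inf_le_left h1
      have hxZh : x ∈ conjS h Z₀ := by
        rw [← hle] at hx
        exact (Subgroup.mem_inf.mp hx).2
      have h2 : Commute x y := hZhcomm h x hxZh y hy
      rw [commutatorElement_eq_one_iff_commute.mpr h2]
      exact one_mem _
  set V := Subgroup.normalClosure (Z₀ : Set G) with hV
  have hVn : V.Normal := inferInstance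
  have hVQ : V ≤ Q := Subgroup.normalClosure_le_normal hZQ
  -- the commutator with `V`
  have hXV : ∀ x ∈ X, ∀ v ∈ V, ⁅x, v⁆ ∈ N := by
    intro x hx v hv
    rw [hV, Subgroup.normalClosure] at hv
    induction hv using Subgroup.closure_induction with
    | mem g hg =>
      rw [Group.mem_conjugatesOfSet_iff] at hg
      obtain ⟨z, hz, hzg⟩ := hg
      obtain ⟨h, rfl⟩ := isConj_iff.mp hzg
      exact hf7 h x hx _ (conj_mem_conjS hz)
    | one => simp
    | mul a c _ _ iha ihc =>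
      have e : ⁅x, a * c⁆ = ⁅x, a⁆ * (a * ⁅x, c⁆ * a⁻¹) := by
        simp only [commutatorElement_def]; group
      rw [e]
      exact mul_mem iha (hNn.conj_mem _ ihc a)
    | inv a _ iha =>
      have e : ⁅x, a⁻¹⁆ = a⁻¹ * ⁅x, a⁆⁻¹ * a⁻¹⁻¹ := by
        simp only [commutatorElement_def]; group
      rw [e]
      exact hNn.conj_mem _ (inv_mem iha) _
  have hNV : ∀ n ∈ N, ∀ v : G, ⁅n, v⁆ ∈ N := by
    intro n hn v
    have e : ⁅n, v⁆ = n * (v * n⁻¹ * v⁻¹) := by rw [commutatorElement_def]; group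
    rw [e]
    exact mul_mem hn (hNn.conj_mem _ (inv_mem hn) v)
  -- the subgroup of elements commuting with `V` modulo `N`
  set K : Subgroup G := (Subgroup.centralizer ((V.map (QuotientGroup.mk' N) : Subgroup (G ⧸ N)) : Set (G ⧸ N))).comap
    (QuotientGroup.mk' N) with hK
  have hVmapn : (V.map (QuotientGroup.mk' N)).Normal := hVn.map _ (QuotientGroup.mk'_surjective N)
  have hKn : K.Normal := inferInstance
  have hKmem : ∀ w : G, (∀ v ∈ V, ⁅w, v⁆ ∈ N) → w ∈ K := by
    intro w hw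
    refine Subgroup.mem_centralizer_iff.mpr ?_
    rintro _ ⟨v, hv, rfl⟩
    have h1 := hw v hv
    have h2 : QuotientGroup.mk' N ⁅w, v⁆ = 1 := (QuotientGroup.eq_one_iff _).mpr h1
    rw [commutatorElement_def] at h2
    simp only [map_mul, map_inv] at h2
    have h3 : QuotientGroup.mk' N w * QuotientGroup.mk' N v = QuotientGroup.mk' N v * QuotientGroup.mk' N w := by
      have h4 := h2
      rw [mul_inv_eq_one, mul_inv_eq_iff_eq_mul] at h4
      exact h4
    exact h3.symm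
  have hKcomm : ∀ w ∈ K, ∀ v ∈ V, ⁅w, v⁆ ∈ N := by
    intro w hw v hv
    have h1 := Subgroup.mem_centralizer_iff.mp hw (QuotientGroup.mk' N v) ⟨v, hv, rfl⟩
    have h2 : QuotientGroup.mk' N ⁅w, v⁆ = 1 := by
      rw [commutatorElement_def]
      simp only [map_mul, map_inv]
      rw [mul_inv_eq_one, mul_inv_eq_iff_eq_mul]
      exact h1.symm
    exact (QuotientGroup.eq_one_iff _).mp h2
  set W := Subgroup.normalClosure (((X ⊔ N : Subgroup G)) : Set G) with hW
  have hWn : W.Normal := inferInstance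
  have hXNZ : X ⊔ N ≤ Z₀ := sup_le hXZ hNZ
  have hZV : Z₀ ≤ V := Subgroup.le_normalClosure
  have hXNW : X ⊔ N ≤ W := Subgroup.le_normalClosure
  have hWV : W ≤ V := Subgroup.normalClosure_le_normal (hXNZ.trans hZV)
  have hWK : W ≤ K := by
    apply Subgroup.normalClosure_le_normal
    exact sup_le (show X ≤ K from fun x hx => hKmem x (hXV x hx)) (show N ≤ K from fun n hn => hKmem n (fun v _ => hNV n hn v))
  have hWW : ⁅W, W⁆ ≤ N := by
    rw [Subgroup.commutator_le]
    intro u hu v hv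
    exact hKcomm u (hWK hu) v (hWV hv)
  -- `N` is central in `V`
  have hNcent : ∀ n ∈ N, ∀ w ∈ V, n * w = w * n := by
    intro n hn w hw
    rw [hV, Subgroup.normalClosure] at hw
    induction hw using Subgroup.closure_induction with
    | mem g hg =>
      rw [Group.mem_conjugatesOfSet_iff] at hg
      obtain ⟨z, hz, hzg⟩ := hg
      obtain ⟨h, rfl⟩ := isConj_iff.mp hzg
      have hn' : h⁻¹ * n * h ∈ Z₀ := by
        have := hNn.conj_mem n hn h⁻¹
        rw [inv_inv] at this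
        exact hNZ this
      have h1 := hZcomm _ hn' z hz
      show n * (h * z * h⁻¹) = h * z * h⁻¹ * n
      calc n * (h * z * h⁻¹) = h * ((h⁻¹ * n * h) * z) * h⁻¹ := by group
        _ = h * (z * (h⁻¹ * n * h)) * h⁻¹ := by rw [h1]
        _ = _ := by group
    | one => simp
    | mul a c _ _ iha ihc => rw [← mul_assoc, iha, mul_assoc, ihc, mul_assoc]
    | inv a _ iha =>
      have : n * a⁻¹ = a⁻¹ * n := by
        calc n * a⁻¹ = a⁻¹ * (a * n) * a⁻¹ := by group
          _ = a⁻¹ * (n * a) * a⁻¹ := by rw [iha]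
          _ = _ := by group
      exact this
  exact ⟨X, hXZ, hXQ, hXN, fun X' h1 h2 h3 => hmin ⟨X', h1, h2, h3⟩, hWW, hWV.trans hVQ, fun n hn w hw =>
    hNcent n hn w (hWV hw)⟩

/-- **The ZJ-theorem** for `Z(J(T))`, with `J(T)` generated by the elementary abelian subgroups of
largest order. -/
theorem zje_normal (hp : p ≠ 2) (T : Sylow p G)
    (hc : Subgroup.centralizer (pCore p G : Set G) ≤ pCore p G)
    (hst : ∀ (W : Subgroup G) [W.Normal], IsPGroup p W → ∀ a ∈ (T : Subgroup G),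
      ⁅⁅W, Subgroup.zpowers a⁆, Subgroup.zpowers a⁆ = ⊥ →
      (QuotientGroup.mk a : G ⧸ Subgroup.centralizer (W : Set G)) ∈ pCore p (G ⧸ Subgroup.centralizer (W : Set G))) :
    (centerThompsonOf p (T : Subgroup G)).Normal := by
  classical
  set J := thompsonSubgroupOf p (T : Subgroup G) with hJ
  set Z₀ := centerThompsonOf p (T : Subgroup G) with hZ₀
  have hZJ : Z₀ ≤ J := inf_le_left
  have hJT : J ≤ T := thompsonOf_le _
  have hZC : ∀ z ∈ Z₀, ∀ j ∈ J, j * z = z * j := fun z hz j hj =>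
    Subgroup.mem_centralizer_iff.mp (Subgroup.mem_inf.mp hz).2 j hj
  have hZcomm : ∀ x ∈ Z₀, ∀ y ∈ Z₀, x * y = y * x := fun x hx y hy => hZC y hy x (hZJ hx)
  have hNZ₀ : ∀ n ∈ Subgroup.normalizer (J : Set G), n ∈ Subgroup.normalizer (Z₀ : Set G) :=
    fun n hn => mem_normalizer_center_inf hn
  have hTN : ∀ t ∈ (T : Subgroup G), t ∈ Subgroup.normalizer (Z₀ : Set G) := fun t ht =>
    hNZ₀ t (mem_normalizer_thompsonOf (Subgroup.le_normalizer ht))
  by_contra hnn
  obtain ⟨X, hXZ, hXQ, hXN, hmin, hBB, hBQ, hNcent⟩ := zj_first T hZcomm hTN (hZJ.trans hJT) hc hst hnn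
  set N := Z₀.normalCore with hN
  set B := Subgroup.normalClosure ((X ⊔ N : Subgroup G) : Set G) with hB
  have hNn : N.Normal := inferInstance
  have hBn : B.Normal := inferInstance
  have hNZ : N ≤ Z₀ := Subgroup.normalCore_le Z₀
  have hXNB : X ⊔ N ≤ B := Subgroup.le_normalClosure
  have hXNZ : X ⊔ N ≤ Z₀ := sup_le hXZ hNZ
  have hBT : B ≤ T := hBQ.trans (pCore_le_sylow T)
  have hBp : IsPGroup p B := (pCore_isPGroup p G).to_le hBQ
  have hnB : ¬ B ≤ Z₀ := fun h => hXN ((le_sup_left.trans hXNB).trans (Subgroup.normal_le_normalCore.mpr h))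
  have hXB : X ≤ B := le_sup_left.trans hXNB
  -- `p`-th powers of `X` lie in `N`
  have hXp : ∀ x ∈ X, x ^ p ∈ N := by
    by_contra hno
    push Not at hno
    obtain ⟨x₀, hx₀, hx₀N⟩ := hno
    have hXc : ∀ x ∈ X, ∀ y ∈ X, x * y = y * x := fun x hx y hy => hZcomm x (hXZ hx) y (hXZ hy)
    let X' : Subgroup G :=
      { carrier := {y | ∃ x ∈ X, x ^ p = y}
        mul_mem' := by
          rintro _ _ ⟨x, hx, rfl⟩ ⟨y, hy, rfl⟩
          exact ⟨x * y, mul_mem hx hy, (show Commute x y from hXc x hx y hy).mul_pow p⟩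
        one_mem' := ⟨1, one_mem _, one_pow _⟩
        inv_mem' := by
          rintro _ ⟨x, hx, rfl⟩
          exact ⟨x⁻¹, inv_mem hx, inv_pow x p⟩ }
    have hX'X : X' ≤ X := by
      rintro _ ⟨x, hx, rfl⟩
      exact pow_mem hx p
    have hX'Q : pCore p G ≤ Subgroup.normalizer (X' : Set G) := by
      intro q hq
      apply mem_normalizer_of_conj_mem
      rintro _ ⟨x, hx, rfl⟩
      exact ⟨q * x * q⁻¹, conj_mem_of_mem_normalizer (hXQ hq) hx, by rw [conj_pow]⟩
    have hX'N : ¬ X' ≤ N := fun h => hx₀N (h ⟨x₀, hx₀, rfl⟩)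
    have h1 := hmin X' (hX'X.trans hXZ) hX'Q hX'N
    have h2 : X' = X := Subgroup.eq_of_le_of_card_ge hX'X h1
    have hXpg : IsPGroup p X := hBp.to_le hXB
    have hne : X ≠ ⊥ := by
      intro h
      apply hXN
      rw [h]
      exact bot_le
    haveI : Nontrivial X := (Subgroup.nontrivial_iff_ne_bot X).mpr hne
    have hdvd : p ∣ Nat.card X := by
      obtain ⟨n, hn⟩ := IsPGroup.iff_card.mp hXpg
      have h1c : 1 < Nat.card X := Finite.one_lt_card
      rw [hn] at h1c ⊢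
      refine dvd_pow_self p ?_
      rintro rfl
      simp at h1c
    obtain ⟨x₁, hx₁⟩ : ∃ x : X, orderOf x = p := exists_prime_orderOf_dvd_card' p hdvd
    let f : X → X := fun x => ⟨(x : G) ^ p, pow_mem x.2 p⟩
    have hsurj : Function.Surjective f := by
      intro y
      have hy : (y : G) ∈ X' := by rw [h2]; exact y.2
      obtain ⟨x, hx, hxe⟩ := hy
      exact ⟨⟨x, hx⟩, Subtype.ext hxe⟩
    have hinj := Finite.injective_iff_surjective.mpr hsurj
    have h3 : f x₁ = f 1 := by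
      apply Subtype.ext
      have := congrArg Subtype.val (pow_orderOf_eq_one x₁)
      rw [hx₁] at this
      simpa [f] using this
    have h4 := hinj h3
    rw [h4, orderOf_one] at hx₁
    exact (Fact.out : p.Prime).ne_one hx₁.symm
  have hXNp : ∀ y ∈ X ⊔ N, y ^ p ∈ N := by
    intro y hy
    obtain ⟨x, hx, n, hn, rfl⟩ := Subgroup.mem_sup_of_normal_right.1 hy
    have hcm : Commute x n := hZcomm x (hXZ hx) n (hNZ hn)
    rw [hcm.mul_pow]
    exact mul_mem (hXp x hx) (pow_mem hn p)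
  have hcomm : ∀ a ∈ B, ∀ b ∈ B, ⁅a, b⁆ ∈ N := fun a ha b hb =>
    hBB (Subgroup.commutator_mem_commutator ha hb)
  have hcentral : ∀ a ∈ B, ∀ b ∈ B, ∀ c ∈ B, Commute ⁅a, b⁆ c := fun a ha b hb c hc =>
    hNcent _ (hcomm a ha b hb) c hc
  -- the subgroup of elements of order dividing `p`
  have hpowmul : ∀ a ∈ B, ∀ b ∈ B, (b ^ p ∈ N) → (a * b) ^ p = a ^ p * b ^ p := by
    intro a ha b hb hbp
    apply mul_pow_of_comm_pow hp (hcentral b hb a ha a ha) (hcentral b hb a ha b hb)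
    rw [← comm_pow_left (hcentral b hb a ha b hb) p]
    exact commutatorElement_eq_one_iff_commute.mpr (hNcent _ hbp a ha)
  let E : Subgroup G :=
    { carrier := {x | x ∈ B ∧ x ^ p = 1}
      mul_mem' := by
        rintro x y ⟨hx, hxp⟩ ⟨hy, hyp⟩
        refine ⟨mul_mem hx hy, ?_⟩
        rw [hpowmul x hx y hy (by rw [hyp]; exact one_mem _), hxp, hyp, one_mul]
      one_mem' := ⟨one_mem _, one_pow _⟩
      inv_mem' := by
        rintro x ⟨hx, hxp⟩
        exact ⟨inv_mem hx, by rw [inv_pow, hxp, inv_one]⟩ }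
  have hEB : E ≤ B := fun x hx => hx.1
  have hEn : E.Normal := ⟨fun x hx g => ⟨hBn.conj_mem x hx.1 g, by
    rw [conj_pow, show x ^ p = 1 from hx.2]; group⟩⟩
  have hET : E ≤ T := hEB.trans hBT
  have hEE : ∀ A ∈ maxFam (eaProp p : Subgroup G → Prop) (T : Subgroup G), ⁅E, E⁆ ≤ A := by
    intro A hA
    rw [Subgroup.commutator_le]
    intro a ha b hb
    have h1 : ⁅a, b⁆ ∈ N := hcomm a ha.1 b hb.1
    refine mem_of_maxFam_ea hA (hBT ?_) ?_ ?_
    · exact (le_sup_right.trans hXNB : N ≤ B) h1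
    · rw [← comm_pow_left (hcentral a ha.1 b hb.1 a ha.1) p, show a ^ p = 1 from ha.2]
      simp
    · intro c hc
      exact hZC _ (hNZ h1) c (maxFam_le_thompsonOf hA hc)
  have hJC : J ≤ Subgroup.centralizer (N : Set G) := by
    intro j hj
    rw [Subgroup.mem_centralizer_iff]
    intro n hn
    exact (hZC n (hNZ hn) j hj).symm
  -- the decomposition of `B`
  set S := B ⊓ Z₀ with hS
  have hBsup : B ≤ S ⊔ E := by
    rw [hB, Subgroup.normalClosure, Subgroup.closure_le]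
    intro w hw
    rw [Group.mem_conjugatesOfSet_iff] at hw
    obtain ⟨x, hx, hxg⟩ := hw
    obtain ⟨g, rfl⟩ := isConj_iff.mp hxg
    obtain ⟨c, hcC, n, hn, rfl⟩ := frattini_thompson T (Subgroup.centralizer (N : Set G)) hJC g
    set y := n * x * n⁻¹ with hy
    have hyB : y ∈ B := hBn.conj_mem x (hXNB hx) n
    have hyS : y ∈ S := Subgroup.mem_inf.mpr ⟨hyB, conj_mem_of_mem_normalizer (hNZ₀ n hn) (hXNZ hx)⟩
    have hyp : y ^ p ∈ N := by
      rw [hy, conj_pow]
      exact hNn.conj_mem _ (hXNp x hx) n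
    set b := c * y * c⁻¹ with hb
    have hbB : b ∈ B := hBn.conj_mem y hyB c
    have hbp : b ^ p = y ^ p := by
      rw [hb, conj_pow]
      have := Subgroup.mem_centralizer_iff.mp hcC _ hyp
      calc c * y ^ p * c⁻¹ = (y ^ p * c) * c⁻¹ := by rw [this]
        _ = y ^ p := by group
    have he : y⁻¹ * b ∈ E := by
      refine ⟨mul_mem (inv_mem hyB) hbB, ?_⟩
      rw [hpowmul _ (inv_mem hyB) _ hbB (by rw [hbp]; exact hyp), hbp, inv_pow, inv_mul_cancel]
    have e : c * n * x * (c * n)⁻¹ = y * (y⁻¹ * b) := by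
      rw [hb, hy]; group
    rw [SetLike.mem_coe, e]
    exact mul_mem ((le_sup_left : S ≤ S ⊔ E) hyS) ((le_sup_right : E ≤ S ⊔ E) he)
  have hdec : ∀ b ∈ B, ∃ y ∈ S, ∃ e ∈ E, y * e = b := fun b hb =>
    Subgroup.mem_sup_of_normal_right.1 (hBsup hb)
  by_cases hEA : ∀ A ∈ maxFam (eaProp p : Subgroup G → Prop) (T : Subgroup G), E ≤ A
  · -- `J` centralizes `B`
    have hJB : J ≤ Subgroup.centralizer (B : Set G) := by
      have hJe : J = sSup (maxFam (eaProp p : Subgroup G → Prop) (T : Subgroup G)) := thompsonOf_eq_sSup p _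
      rw [hJe]
      apply sSup_le
      intro A hA a ha
      rw [Subgroup.mem_centralizer_iff]
      intro b hb
      obtain ⟨y, hy, e, he, rfl⟩ := hdec b hb
      have h1 : a * y = y * a := hZC y (Subgroup.mem_inf.mp hy).2 a (maxFam_le_thompsonOf hA ha)
      have h2 : a * e = e * a := ea_comm hA.2.1 ha (hEA A hA he)
      calc y * e * a = y * (e * a) := by group
        _ = y * (a * e) := by rw [h2]
        _ = (y * a) * e := by group
        _ = (a * y) * e := by rw [h1]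
        _ = _ := by group
    apply hnB
    rw [hB, Subgroup.normalClosure, Subgroup.closure_le]
    intro w hw
    rw [Group.mem_conjugatesOfSet_iff] at hw
    obtain ⟨x, hx, hxg⟩ := hw
    obtain ⟨g, rfl⟩ := isConj_iff.mp hxg
    obtain ⟨c, hcC, n, hn, rfl⟩ := frattini_thompson T (Subgroup.centralizer (B : Set G)) hJB g
    have h3 : n * x * n⁻¹ ∈ B := hBn.conj_mem x (hXNB hx) n
    have h4 := Subgroup.mem_centralizer_iff.mp hcC _ h3
    have e : c * n * x * (c * n)⁻¹ = n * x * n⁻¹ := by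
      calc c * n * x * (c * n)⁻¹ = (c * (n * x * n⁻¹)) * c⁻¹ := by group
        _ = ((n * x * n⁻¹) * c) * c⁻¹ := by rw [← h4]
        _ = _ := by group
    rw [SetLike.mem_coe, e]
    exact conj_mem_of_mem_normalizer (hNZ₀ n hn) (hXNZ hx)
  · push Not at hEA
    obtain ⟨A, hA, hEnA⟩ := hEA
    obtain ⟨A₁, hA₁, hA₁E, hA₁n, hA₁N⟩ := rep_ea hp T E hET ⟨A, hA, hEE A hA, hEnA⟩
    have hA₁comm := hA₁.2.1.1
    have hBN : B ≤ Subgroup.normalizer (A₁ : Set G) := by
      intro b hb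
      obtain ⟨y, hy, e, he, rfl⟩ := hdec b hb
      refine mul_mem ?_ (hA₁N he)
      apply mem_normalizer_of_conj_mem
      intro a ha
      have h1 : a * y = y * a := hZC y (Subgroup.mem_inf.mp hy).2 a (maxFam_le_thompsonOf hA₁ ha)
      have e1 : y * a * y⁻¹ = a := by rw [← h1]; group
      rw [e1]
      exact ha
    -- quadratic action
    have hquad : ∀ a ∈ A₁, ⁅⁅B, Subgroup.zpowers a⁆, Subgroup.zpowers a⁆ = ⊥ := by
      intro a ha
      rw [eq_bot_iff]
      have h1 : ⁅B, Subgroup.zpowers a⁆ ≤ A₁ := by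
        rw [Subgroup.commutator_le]
        rintro w hw _ ⟨i, rfl⟩
        have hai : a ^ i ∈ A₁ := zpow_mem ha i
        have e : ⁅w, a ^ i⁆ = (w * a ^ i * w⁻¹) * (a ^ i)⁻¹ := by rw [commutatorElement_def]
        show ⁅w, a ^ i⁆ ∈ A₁
        rw [e]
        exact mul_mem (conj_mem_of_mem_normalizer (hBN hw) hai) (inv_mem hai)
      have h2 : ⁅A₁, Subgroup.zpowers a⁆ = ⊥ := comm_zpowers_eq_bot_of_commute fun u hu => ab_comm hA₁comm hu ha
      rw [← h2]
      exact Subgroup.commutator_mono h1 le_rfl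
    set C := Subgroup.centralizer (B : Set G) with hC
    have hCn : C.Normal := inferInstance
    set D : Subgroup G := (pCore p (G ⧸ C)).comap (QuotientGroup.mk' C) with hD
    have hDn : D.Normal := inferInstance
    have hCD : C ≤ D := by
      intro c hc'
      show QuotientGroup.mk' C c ∈ pCore p (G ⧸ C)
      have h1 : QuotientGroup.mk' C c = 1 := (QuotientGroup.eq_one_iff c).mpr hc'
      rw [h1]
      exact one_mem _
    have hA₁D : A₁ ≤ D := fun a ha => hst B hBp a (hA₁.1 ha) (hquad a ha)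
    set Y := (T : Subgroup G) ⊓ D with hY
    have hA₁Y : A₁ ≤ Y := le_inf hA₁.1 hA₁D
    obtain ⟨h1, h2⟩ := maxFam_subset (inf_le_left : Y ≤ T) hA₁ hA₁Y
    have hBC : B ≤ Subgroup.centralizer (A₁ : Set G) := by
      rw [hB, Subgroup.normalClosure, Subgroup.closure_le]
      intro w hw
      rw [Group.mem_conjugatesOfSet_iff] at hw
      obtain ⟨x, hx, hxg⟩ := hw
      obtain ⟨g, rfl⟩ := isConj_iff.mp hxg
      obtain ⟨c, hcC, n, hnY, rfl⟩ := exists_mul_normalizer_inf T C D hCD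
        (fun d hd => exists_sylow_mul_of_mem_pCore C hd T) g
      have h3 : n * x * n⁻¹ ∈ B := hBn.conj_mem x (hXNB hx) n
      have h4 := Subgroup.mem_centralizer_iff.mp hcC _ h3
      have e : c * n * x * (c * n)⁻¹ = n * x * n⁻¹ := by
        calc c * n * x * (c * n)⁻¹ = (c * (n * x * n⁻¹)) * c⁻¹ := by group
          _ = ((n * x * n⁻¹) * c) * c⁻¹ := by rw [← h4]
          _ = _ := by group
      rw [SetLike.mem_coe, e, Subgroup.mem_centralizer_iff]
      intro a ha
      have hA' : conjS n⁻¹ A₁ ∈ maxFam (eaProp p : Subgroup G → Prop) (T : Subgroup G) :=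
        h2 (maxFam_conj (autInv_ea.conjInv) (inv_mem hnY) h1)
      have ha' : n⁻¹ * a * n⁻¹⁻¹ ∈ conjS n⁻¹ A₁ := conj_mem_conjS ha
      have h5 := hZC x (hXNZ hx) _ (maxFam_le_thompsonOf hA' ha')
      calc a * (n * x * n⁻¹) = n * ((n⁻¹ * a * n⁻¹⁻¹) * x) * n⁻¹ := by group
        _ = n * (x * (n⁻¹ * a * n⁻¹⁻¹)) * n⁻¹ := by rw [h5]
        _ = _ := by group
    obtain ⟨e, he, heA⟩ := SetLike.not_le_iff_exists.mp hA₁n
    exact heA (mem_of_maxFam_ea hA₁ (hBT he.1) he.2 (fun a ha => Subgroup.mem_centralizer_iff.mp (hBC he.1) a ha))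

end Cfsg.Agent.Lib.PLocal
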