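import Cfsg.Agent.Lib.PLocal.GTMain
import Cfsg.Agent.Lib.PLocal.ZJe
import Mathlib

/-! The Glauberman--Thompson normal `p`-complement theorem for `Z(J(P))`, where `J(P)` is generated by
the elementary abelian subgroups of largest order. -/

set_option autoImplicit false

namespace Cfsg.Agent.Lib.PLocal.GT

open Cfsg Cfsg.Agent.Lib.Techniques Cfsg.Agent.Lib.FrobThm Cfsg.Agent.Lib.PLocal Cfsg.Agent.Lib.PLocal.QuadMat
open Cfsg.Agent.Lib.Core Cfsg.Agent.Lib.Transfer
open scoped commutatorElement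

universe u

theorem centerThompsonOf_map_of_injOn {G H : Type*} [Group G] [Group H] {p : ℕ} (f : G →* H) {T : Subgroup G}
    (hf : ∀ x ∈ T, f x = 1 → x = 1) :
    centerThompsonOf p (T.map f) = (centerThompsonOf p T).map f := by
  rw [centerThompsonOf, centerThompsonOf, thompsonOf_map_of_injOn f T hf]
  set J := thompsonSubgroupOf p T with hJ
  have hJT : J ≤ T := thompsonOf_le T
  ext y
  constructor
  · intro hy
    obtain ⟨h1, h2⟩ := Subgroup.mem_inf.mp hy
    obtain ⟨x, hx, rfl⟩ := h1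
    refine ⟨x, Subgroup.mem_inf.mpr ⟨hx, ?_⟩, rfl⟩
    rw [SetLike.mem_coe, Subgroup.mem_centralizer_iff] at *
    intro j hj
    have h3 := h2 (f j) ⟨j, hj, rfl⟩
    have h4 : j * x * (x * j)⁻¹ = 1 := by
      apply hf _ (mul_mem (mul_mem (hJT hj) (hJT hx)) (inv_mem (mul_mem (hJT hx) (hJT hj))))
      rw [map_mul, map_inv, map_mul, map_mul, h3, mul_inv_cancel]
    exact mul_inv_eq_one.mp h4
  · rintro ⟨x, hx, rfl⟩
    obtain ⟨h1, h2⟩ := Subgroup.mem_inf.mp hx
    refine Subgroup.mem_inf.mpr ⟨⟨x, h1, rfl⟩, ?_⟩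
    rw [Subgroup.mem_centralizer_iff]
    rintro _ ⟨j, hj, rfl⟩
    have := Subgroup.mem_centralizer_iff.mp h2 j hj
    rw [← map_mul, ← map_mul, this]

theorem centerThompsonOf_ne_bot {G : Type*} [Group G] [Finite G] {p : ℕ} [Fact p.Prime] {T : Subgroup G}
    (hT : IsPGroup p T) (h : T ≠ ⊥) : centerThompsonOf p T ≠ ⊥ := by
  haveI : Nontrivial T := (Subgroup.nontrivial_iff_ne_bot T).mpr h
  haveI : Nontrivial (Subgroup.center T) := hT.center_nontrivial
  have hZp : IsPGroup p (Subgroup.center T) := hT.to_subgroup _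
  have hdvd : p ∣ Nat.card (Subgroup.center T) := by
    obtain ⟨n, hn⟩ := IsPGroup.iff_card.mp hZp
    have h1c : 1 < Nat.card (Subgroup.center T) := Finite.one_lt_card
    rw [hn] at h1c ⊢
    refine dvd_pow_self p ?_
    rintro rfl
    simp at h1c
  obtain ⟨z, hz⟩ : ∃ x : Subgroup.center T, orderOf x = p := exists_prime_orderOf_dvd_card' p hdvd
  have hzT : ((z : T) : G) ∈ T := (z : T).2
  have hzc : ∀ t ∈ T, t * ((z : T) : G) = ((z : T) : G) * t := by
    intro t ht
    have := (Subgroup.mem_center_iff.mp z.2) ⟨t, ht⟩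
    exact congrArg Subtype.val this
  have hzp : ((z : T) : G) ^ p = 1 := by
    have := pow_orderOf_eq_one z
    rw [hz] at this
    have h2 := congrArg (fun t : Subgroup.center T => ((t : T) : G)) this
    simpa using h2
  have hmem : ∀ A ∈ maxFam (eaProp p : Subgroup G → Prop) T, ((z : T) : G) ∈ A := fun A hA =>
    mem_of_maxFam_ea hA hzT hzp (fun a ha => hzc a (hA.1 ha))
  obtain ⟨A₀, hA₀⟩ := maxFam_nonempty (Pr := (eaProp p : Subgroup G → Prop)) ea_bot T
  intro hb
  have h1 : ((z : T) : G) ∈ centerThompsonOf p T := by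
    refine Subgroup.mem_inf.mpr ⟨maxFam_le_thompsonOf hA₀ (hmem A₀ hA₀), ?_⟩
    rw [Subgroup.mem_centralizer_iff]
    intro j hj
    exact hzc j (thompsonOf_le T hj)
  rw [hb, Subgroup.mem_bot] at h1
  have h2 : z = 1 := Subtype.ext (Subtype.ext h1)
  rw [h2, orderOf_one] at hz
  exact (Fact.out : p.Prime).ne_one hz.symm

/-- The functor `Z(J(T))`, with `J` via elementary abelian subgroups. -/
def funE (p : ℕ) [Fact p.Prime] : CFun.{u} p where
  W T := centerThompsonOf p T
  le T := inf_le_left.trans (thompsonOf_le T)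
  ne_bot h1 h2 := centerThompsonOf_ne_bot h1 h2
  map f _ hf := centerThompsonOf_map_of_injOn f (fun x hx h1 => hf hx (one_mem _) (by rw [h1, map_one]))

/-- **Glauberman--Thompson normal `p`-complement theorem**, `J` via elementary abelian subgroups. -/
theorem gt_ea {G : Type u} [Group G] [Finite G] {p : ℕ} [hfp : Fact p.Prime] (hp : p ≠ 2) (P : Sylow p G)
    (hN : PNil p (Subgroup.normalizer (centerThompsonOf p (P : Subgroup G) : Set G))) : PNil p (⊤ : Subgroup G) := by
  refine gt_core (funE p) ?_ _ G P rfl hN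
  intro X _ _ P' D K h
  have hS := star_of_setup h
  exact zje_normal hp P' (centralizer_pCore_of_setup h) (fun W _ hW a _ hq =>
    haveI := isPStableOn_pgroup_of_star hp hS W hW a hq
    this)

end Cfsg.Agent.Lib.PLocal.GT
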