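import Cfsg.Prelude.Def_PLocal
import Cfsg.Agent.Lib.Techniques.SylowIn
import Cfsg.Agent.Lib.Transfer.Conj
import Mathlib

/-! Uniserial action of a `p`-group on a `p`-group. -/

set_option autoImplicit false

namespace Cfsg.Agent.Lib.PLocal.Uni

open Cfsg Cfsg.Agent.Lib.Techniques Cfsg.Agent.Lib.Transfer
open scoped commutatorElement

variable {L : Type*} [Group L]

theorem commutator_le_of_normalizer {H G : Subgroup L} (h : G ≤ Subgroup.normalizer (H : Set L)) : ⁅H, G⁆ ≤ H := by
  rw [Subgroup.commutator_le]
  intro x hx g hg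
  have e : ⁅x, g⁆ = x * (g * x⁻¹ * g⁻¹) := by rw [commutatorElement_def]; group
  rw [e]
  exact mul_mem hx (conj_mem_of_mem_normalizer (h hg) (inv_mem hx))

theorem conjS_commutator (g : L) (A B : Subgroup L) : conjS g ⁅A, B⁆ = ⁅conjS g A, conjS g B⁆ :=
  Subgroup.map_commutator _ _ _

theorem mem_normalizer_commutator {A B : Subgroup L} {g : L} (hA : g ∈ Subgroup.normalizer (A : Set L))
    (hB : g ∈ Subgroup.normalizer (B : Set L)) : g ∈ Subgroup.normalizer ((⁅A, B⁆ : Subgroup L) : Set L) := by
  rw [mem_normalizer_iff_conjS] at *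
  rw [conjS_commutator, hA, hB]

theorem iter_props {N G : Subgroup L} (hGN : G ≤ Subgroup.normalizer (N : Set L)) (i : ℕ) :
    iterCommutator N G i ≤ N ∧ G ≤ Subgroup.normalizer (iterCommutator N G i : Set L) := by
  induction i with
  | zero => exact ⟨le_rfl, hGN⟩
  | succ i ih =>
    refine ⟨(commutator_le_of_normalizer ih.2).trans ih.1, ?_⟩
    intro g hg
    exact mem_normalizer_commutator (ih.2 hg) (Subgroup.le_normalizer hg)

theorem iter_succ (N G : Subgroup L) (i : ℕ) : iterCommutator N G (i + 1) = ⁅iterCommutator N G i, G⁆ := rfl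

theorem iter_succ_le {N G : Subgroup L} (hGN : G ≤ Subgroup.normalizer (N : Set L)) (i : ℕ) :
    iterCommutator N G (i + 1) ≤ iterCommutator N G i :=
  commutator_le_of_normalizer (iter_props hGN i).2

theorem iter_anti {N G : Subgroup L} (hGN : G ≤ Subgroup.normalizer (N : Set L)) {i j : ℕ} (h : i ≤ j) :
    iterCommutator N G j ≤ iterCommutator N G i := by
  induction j, h using Nat.le_induction with
  | base => exact le_rfl
  | succ j _ ih => exact (iter_succ_le hGN j).trans ih

theorem iter_mono {N G G' : Subgroup L} (h : G ≤ G') (i : ℕ) : iterCommutator N G i ≤ iterCommutator N G' i := by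
  induction i with
  | zero => exact le_rfl
  | succ i ih => exact Subgroup.commutator_mono ih h

variable [Finite L] {p : ℕ} [Fact p.Prime]

theorem commutator_lt {M G : Subgroup L} (hM : IsPGroup p M) (hG : IsPGroup p G)
    (hGM : G ≤ Subgroup.normalizer (M : Set L)) (hne : M ≠ ⊥) : ⁅M, G⁆ < M := by
  refine lt_of_le_of_ne (commutator_le_of_normalizer hGM) fun h => hne ?_
  set K := M ⊔ G with hK
  have hKp : IsPGroup p K := IsPGroup.to_sup_of_normal_left' hM hG hGM
  haveI : Group.IsNilpotent K := hKp.isNilpotent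
  have hall : ∀ n, M ≤ K.lowerCentralSeries n := by
    intro n
    induction n with
    | zero => exact le_sup_left
    | succ n ih =>
      rw [Subgroup.lowerCentralSeries_succ]
      have h1 : ⁅M, G⁆ ≤ ⁅K.lowerCentralSeries n, K⁆ := Subgroup.commutator_mono ih le_sup_right
      rwa [h] at h1
  obtain ⟨n, hn⟩ := (Subgroup.isNilpotent_iff_lowerCentralSeries K).mp inferInstance
  rw [eq_bot_iff, ← hn]
  exact hall n

theorem card_lt_of_lt {A B : Subgroup L} (h : A < B) : Nat.card A < Nat.card B := by
  by_contra hle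
  push Not at hle
  exact h.ne (Subgroup.eq_of_le_of_card_ge h.le hle)

theorem relIndex_mul_card {A B : Subgroup L} (h : A ≤ B) : A.relIndex B * Nat.card A = Nat.card B := by
  rw [Subgroup.relIndex, ← Nat.card_congr (Subgroup.subgroupOfEquivOfLe h).toEquiv, Subgroup.index_mul_card]

theorem eq_bot_of_card_eq_one {A : Subgroup L} (h : Nat.card A = 1) : A = ⊥ :=
  Subgroup.eq_bot_of_card_eq A h

theorem card_iter_eq_of_ne {N G : Subgroup L} (hN : IsPGroup p N) (hG : IsPGroup p G)
    (hGN : G ≤ Subgroup.normalizer (N : Set L)) {n : ℕ} (hn : Nat.card N = p ^ n)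
    (hne : iterCommutator N G (n - 1) ≠ ⊥ ∨ n = 0) : ∀ i, i ≤ n → Nat.card (iterCommutator N G i) = p ^ (n - i) := by
  have hpp : p.Prime := Fact.out
  have hex : ∀ i, ∃ e, Nat.card (iterCommutator N G i) = p ^ e := fun i =>
    IsPGroup.iff_card.mp (hN.to_le (iter_props hGN i).1)
  choose e he using hex
  have h0 : e 0 = n := by
    have h1 : Nat.card (iterCommutator N G 0) = p ^ n := hn
    rw [he 0] at h1
    exact Nat.pow_right_injective hpp.two_le h1
  have hstep : ∀ i, i < n → e (i + 1) < e i := by
    intro i hi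
    have hne' : iterCommutator N G i ≠ ⊥ := by
      rcases hne with hne | hne
      · intro hb
        apply hne
        rw [eq_bot_iff, ← hb]
        exact iter_anti hGN (by omega)
      · omega
    have h1 := card_lt_of_lt (commutator_lt (hN.to_le (iter_props hGN i).1) hG (iter_props hGN i).2 hne')
    rw [← iter_succ, he, he] at h1
    exact (Nat.pow_lt_pow_iff_right hpp.one_lt).mp h1
  have up : ∀ i, i ≤ n → e i + i ≤ n := by
    intro i
    induction i with
    | zero => intro _; simp [h0]
    | succ i ih =>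
      intro h
      have h1 := hstep i (by omega)
      have h2 := ih (by omega)
      omega
  have dn : ∀ k i, i + k + 1 = n → n ≤ e i + i := by
    intro k
    induction k with
    | zero =>
      intro i hi
      have hne' : iterCommutator N G i ≠ ⊥ := by
        rcases hne with hne | hne
        · have : i = n - 1 := by omega
          rw [this]; exact hne
        · omega
      have h1 : e i ≠ 0 := by
        intro h0'
        have h2 := he i
        rw [h0', pow_zero] at h2
        exact hne' (eq_bot_of_card_eq_one h2)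
      omega
    | succ k ih =>
      intro i hi
      have h1 := hstep i (by omega)
      have h2 := ih (i + 1) (by omega)
      omega
  intro i hi
  rw [he]
  congr 1
  by_cases hin : i < n
  · have h1 := up i hi
    have h2 := dn (n - 1 - i) i (by omega)
    omega
  · have h1 := up i hi
    omega

theorem normal_iter {N G : Subgroup L} (hN : IsPGroup p N) (hG : IsPGroup p G)
    (hGN : G ≤ Subgroup.normalizer (N : Set L)) {n : ℕ} (hn : Nat.card N = p ^ n)
    (hne : iterCommutator N G (n - 1) ≠ ⊥ ∨ n = 0) {i : ℕ} (hi : i ≤ n) :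
    N ≤ Subgroup.normalizer (iterCommutator N G i : Set L) := by
  set P := G ⊔ N with hP
  have hPp : IsPGroup p P := IsPGroup.to_sup_of_normal_right' hG hN hGN
  have hPN : P ≤ Subgroup.normalizer (N : Set L) := sup_le hGN Subgroup.le_normalizer
  have hGP : G ≤ P := le_sup_left
  have hne' : iterCommutator N P (n - 1) ≠ ⊥ ∨ n = 0 := by
    rcases hne with hne | hne
    · left
      intro hb
      apply hne
      rw [eq_bot_iff, ← hb]
      exact iter_mono hGP _
    · exact Or.inr hne
  have h1 := card_iter_eq_of_ne hN hG hGN hn hne i hi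
  have h2 := card_iter_eq_of_ne hN hPp hPN hn hne' i hi
  have h3 : iterCommutator N G i = iterCommutator N P i :=
    Subgroup.eq_of_le_of_card_ge (iter_mono hGP i) (by rw [h1, h2])
  rw [h3]
  exact (le_sup_right : N ≤ P).trans (iter_props hPN i).2

theorem classify {N G : Subgroup L} (hN : IsPGroup p N) (hG : IsPGroup p G)
    (hGN : G ≤ Subgroup.normalizer (N : Set L)) {n : ℕ} (hn : Nat.card N = p ^ n)
    (hne : iterCommutator N G (n - 1) ≠ ⊥ ∨ n = 0) (H : Subgroup L) (hHN : H ≤ N)
    (hGH : G ≤ Subgroup.normalizer (H : Set L)) : ∃ i ≤ n, H = iterCommutator N G i := by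
  have hpp : p.Prime := Fact.out
  have hcard := card_iter_eq_of_ne hN hG hGN hn hne
  have hnorm : ∀ i, i ≤ n → N ≤ Subgroup.normalizer (iterCommutator N G i : Set L) := fun i hi =>
    normal_iter hN hG hGN hn hne hi
  have hbot : iterCommutator N G n = ⊥ := by
    apply eq_bot_of_card_eq_one
    rw [hcard n le_rfl]
    simp
  induction hc : Nat.card H using Nat.strong_induction_on generalizing H with
  | _ c ih =>
    by_cases hHb : H = ⊥
    · exact ⟨n, le_rfl, by rw [hbot, hHb]⟩
    have hlt := commutator_lt (hN.to_le hHN) hG hGH hHb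
    obtain ⟨k, hk, hke⟩ := ih _ (by rw [← hc]; exact card_lt_of_lt hlt) ⁅H, G⁆ (hlt.le.trans hHN)
      (fun g hg => mem_normalizer_commutator (hGH hg) (Subgroup.le_normalizer hg)) rfl
    -- the largest term containing `H`
    have hexm : ∃ m, ¬ H ≤ iterCommutator N G m := ⟨n, by
      rw [hbot]
      intro h
      exact hHb (le_bot_iff.mp h)⟩
    classical
    set m := Nat.find hexm with hm
    have hm1 : ¬ H ≤ iterCommutator N G m := Nat.find_spec hexm
    have hm0 : m ≠ 0 := by
      intro h0
      rw [h0] at hm1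
      exact hm1 hHN
    obtain ⟨j, hj⟩ : ∃ j, m = j + 1 := ⟨m - 1, by omega⟩
    have hHj : H ≤ iterCommutator N G j := by
      have := Nat.find_min hexm (show j < Nat.find hexm by rw [← hm]; omega)
      exact not_not.mp this
    rw [hj] at hm1
    have hjn : j < n := by
      by_contra hjn
      apply hHb
      rw [eq_bot_iff, ← hbot]
      exact hHj.trans (iter_anti hGN (by omega))
    have hkle : iterCommutator N G k ≤ iterCommutator N G (j + 1) := by
      rw [← hke]
      exact Subgroup.commutator_mono hHj le_rfl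
    have hkj : j + 1 ≤ k := by
      have h1 := Subgroup.card_le_of_le hkle
      rw [hcard k hk, hcard (j + 1) (by omega)] at h1
      have h2 := (Nat.pow_le_pow_iff_right hpp.one_lt).mp h1
      omega
    -- the subgroup `R`
    set R := H ⊔ iterCommutator N G (j + 1) with hR
    have hRle : R ≤ iterCommutator N G j := sup_le hHj (iter_succ_le hGN j)
    have hRgt : iterCommutator N G (j + 1) < R :=
      lt_of_le_of_ne le_sup_right fun h => hm1 (by rw [h]; exact le_sup_left)
    have hRe : R = iterCommutator N G j := by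
      apply Subgroup.eq_of_le_of_card_ge hRle
      have hc1 := hcard j hjn.le
      have hc2 := hcard (j + 1) hjn
      have hsucc : n - j = (n - (j + 1)) + 1 := by omega
      have h1 : Nat.card R ∣ p ^ (n - j) := by
        rw [← hc1]
        exact Subgroup.card_dvd_of_le hRle
      obtain ⟨a, ha, ha2⟩ := (Nat.dvd_prime_pow hpp).mp h1
      have h2 := card_lt_of_lt hRgt
      rw [hc2, ha2] at h2
      have h3 := (Nat.pow_lt_pow_iff_right hpp.one_lt).mp h2
      have h4 : a = n - j := by omega
      rw [hc1, ha2, h4]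
    rcases Nat.eq_or_lt_of_le hkj with hkeq | hklt
    · -- `k = j + 1`
      refine ⟨j, hjn.le, ?_⟩
      have h1 : iterCommutator N G (j + 1) ≤ H := by
        rw [hkeq, ← hke]
        exact hlt.le
      rw [← hRe, hR, sup_eq_left.mpr h1]
    · -- `k ≥ j + 2`: contradiction
      exfalso
      have hj2 : j + 2 ≤ n := by omega
      have hnj2 := hnorm (j + 2) hj2
      have hGj2 := (iter_props hGN (j + 2)).2
      let T : Subgroup L :=
        { carrier := {x | x ∈ N ∧ ∀ g ∈ G, ⁅x, g⁆ ∈ iterCommutator N G (j + 2)}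
          mul_mem' := by
            rintro x y ⟨hx, hx2⟩ ⟨hy, hy2⟩
            refine ⟨mul_mem hx hy, fun g hg => ?_⟩
            have e : ⁅x * y, g⁆ = (x * ⁅y, g⁆ * x⁻¹) * ⁅x, g⁆ := by
              simp only [commutatorElement_def]; group
            rw [e]
            exact mul_mem (conj_mem_of_mem_normalizer (hnj2 hx) (hy2 g hg)) (hx2 g hg)
          one_mem' := ⟨one_mem _, fun g _ => by simp⟩
          inv_mem' := by
            rintro x ⟨hx, hx2⟩
            refine ⟨inv_mem hx, fun g hg => ?_⟩
            have e : ⁅x⁻¹, g⁆ = x⁻¹ * ⁅x, g⁆⁻¹ * x⁻¹⁻¹ := by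
              simp only [commutatorElement_def]; group
            rw [e]
            exact conj_mem_of_mem_normalizer (hnj2 (inv_mem hx)) (inv_mem (hx2 g hg)) }
      have hHT : H ≤ T := fun x hx => ⟨hHN hx, fun g hg => by
        have h1 : ⁅x, g⁆ ∈ ⁅H, G⁆ := Subgroup.commutator_mem_commutator hx hg
        rw [hke] at h1
        exact iter_anti hGN (show j + 2 ≤ k by omega) h1⟩
      have hj1T : iterCommutator N G (j + 1) ≤ T := fun x hx => ⟨(iter_props hGN _).1 hx, fun g hg =>
        Subgroup.commutator_mem_commutator hx hg⟩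
      have hRT : R ≤ T := sup_le hHT hj1T
      have h5 : iterCommutator N G (j + 1) ≤ iterCommutator N G (j + 2) := by
        rw [iter_succ]
        rw [Subgroup.commutator_le]
        intro x hx g hg
        rw [← hRe] at hx
        exact (hRT hx).2 g hg
      have h6 := Subgroup.card_le_of_le h5
      rw [hcard _ (by omega), hcard _ hj2] at h6
      have h7 := (Nat.pow_le_pow_iff_right hpp.one_lt).mp h6
      omega

/-- The uniserial property in terms of the cardinalities of the chain. -/
theorem card_iter_of_uni {N G : Subgroup L} (hGN : G ≤ Subgroup.normalizer (N : Set L))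
    {n : ℕ} (hn : Nat.card N = p ^ n)
    (hU : ∀ H : Subgroup L, H ≤ N → G ≤ Subgroup.normalizer (H : Set L) → H ≠ ⊥ → (⁅H, G⁆).relIndex H = p) :
    ∀ i, i ≤ n → Nat.card (iterCommutator N G i) = p ^ (n - i) := by
  have hpp : p.Prime := Fact.out
  intro i
  induction i with
  | zero =>
    intro _
    have : Nat.card (iterCommutator N G 0) = p ^ n := hn
    simpa using this
  | succ i ih =>
    intro h
    have h1 := ih (by omega)
    have hne : iterCommutator N G i ≠ ⊥ := by
      intro hb
      rw [hb, Subgroup.card_bot] at h1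
      have : p ^ (n - i) ≠ 1 := (Nat.one_lt_pow (by omega) hpp.one_lt).ne'
      exact this h1.symm
    have h2 := hU _ (iter_props hGN i).1 (iter_props hGN i).2 hne
    have h3 := relIndex_mul_card (iter_succ_le hGN i)
    rw [iter_succ, h2, h1] at h3
    have hsucc : n - i = (n - (i + 1)) + 1 := by omega
    rw [hsucc, pow_succ, mul_comm] at h3
    exact Nat.eq_of_mul_eq_mul_right hpp.pos h3

theorem main {N G : Subgroup L} (hN : IsPGroup p N) (hG : IsPGroup p G)
    (hGN : G ≤ Subgroup.normalizer (N : Set L)) (n : ℕ) (hn : Nat.card N = p ^ n) :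
    ((∀ H : Subgroup L, H ≤ N → G ≤ Subgroup.normalizer (H : Set L) → H ≠ ⊥ → (⁅H, G⁆).relIndex H = p) ↔
      iterCommutator N G (n - 1) ≠ ⊥ ∨ n = 0) ∧
    ((∀ H : Subgroup L, H ≤ N → G ≤ Subgroup.normalizer (H : Set L) → H ≠ ⊥ → (⁅H, G⁆).relIndex H = p) →
      ∀ H : Subgroup L, H ≤ N → G ≤ Subgroup.normalizer (H : Set L) →
        (∃ i ≤ n, H = iterCommutator N G i) ∧ N ≤ Subgroup.normalizer (H : Set L)) := by
  have hpp : p.Prime := Fact.out
  have himp : (∀ H : Subgroup L, H ≤ N → G ≤ Subgroup.normalizer (H : Set L) → H ≠ ⊥ → (⁅H, G⁆).relIndex H = p) →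
      iterCommutator N G (n - 1) ≠ ⊥ ∨ n = 0 := by
    intro hU
    by_cases hn0 : n = 0
    · exact Or.inr hn0
    left
    intro hb
    have h1 := card_iter_of_uni hGN hn hU (n - 1) (by omega)
    rw [hb, Subgroup.card_bot] at h1
    have h2 : n - (n - 1) = 1 := by omega
    rw [h2, pow_one] at h1
    exact hpp.ne_one h1.symm
  refine ⟨⟨himp, ?_⟩, ?_⟩
  · intro hne H hHN hGH hHb
    have hcard := card_iter_eq_of_ne hN hG hGN hn hne
    obtain ⟨i, hi, rfl⟩ := classify hN hG hGN hn hne H hHN hGH
    have hin : i < n := by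
      by_contra hin
      have h1 : i = n := by omega
      apply hHb
      apply eq_bot_of_card_eq_one
      rw [hcard i hi, h1]
      simp
    have h3 := relIndex_mul_card (iter_succ_le hGN i)
    rw [hcard i hi, hcard (i + 1) hin] at h3
    have hsucc : n - i = (n - (i + 1)) + 1 := by omega
    rw [hsucc, pow_succ, mul_comm] at h3
    rw [← iter_succ]
    exact Nat.eq_of_mul_eq_mul_left (pow_pos hpp.pos _) h3
  · intro hU H hHN hGH
    have hne := himp hU
    obtain ⟨i, hi, rfl⟩ := classify hN hG hGN hn hne H hHN hGH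
    exact ⟨⟨i, hi, rfl⟩, normal_iter hN hG hGN hn hne hi⟩

end Cfsg.Agent.Lib.PLocal.Uni
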