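import Cfsg.Agent.Lib.Techniques.QdFail
import Cfsg.Agent.Lib.Techniques.LocalSL2
import Cfsg.Agent.Lib.Techniques.StrongMain
import Cfsg.Agent.Lib.PStableQ.Main
import Mathlib

/-! `Z(J)` and sections: `Qd(p)`-freeness, `p`-stability of sections, control of strong fusion. -/

set_option autoImplicit false
set_option linter.style.haveILetI false

namespace Cfsg.Agent.Lib.PLocal.ZJSec

open Cfsg Cfsg.Agent.Lib.Techniques Cfsg.Agent.Lib.PLocal Cfsg.Agent.Lib.PLocal.Qd

universe u

variable {G : Type u} [Group G] [Finite G] {p : ℕ} [hfp : Fact p.Prime]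

/-- `Z(J)` controls strong fusion if all sections are `p`-stable. -/
theorem zj_controls_of_sections (hp : p ≠ 2)
    (hst : ∀ (K R : Subgroup G) [hR : (R.subgroupOf K).Normal], IsNormalizerPStable p (↥K ⧸ R.subgroupOf K))
    (S : Sylow p G) : ControlsStrongFusion p (centerThompsonAOf (S : Subgroup G)) := by
  have hW' : ∀ W' ∈ ({zjFun} : Set (∀ (Q : Type u) [Group Q], Subgroup Q)), IsCharPFunctor.{u} p W' := by
    intro W' hW''
    rw [Set.mem_singleton_iff.1 hW'']
    exact isCharPFunctor_zjFun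
  have h1 := controlsStrongFusion_of_family isCharPFunctor_zjFun (strong_control_global hW' fun K R hR hC => by
    obtain ⟨T⟩ : Nonempty (Sylow p (↥K ⧸ R.subgroupOf K)) := inferInstance
    refine family_of_normal T ?_
    rw [inducedFunctor_zjFun]
    exact zj_normal_of_stable hp (hst K R) hC T) S
  rwa [inducedFunctor_zjFun] at h1

/-- In `Qd(p)`, the centre of the Thompson subgroup does not control strong fusion. -/
theorem not_controls_qd {Γ : Type u} [Group Γ] [Finite Γ] (φ : Γ ≃* Cfsg.qd p)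
    (hc : ∀ T : Sylow p Γ, ControlsStrongFusion p (centerThompsonAOf (T : Subgroup Γ))) : False := by
  obtain ⟨T⟩ : Nonempty (Sylow p Γ) := inferInstance
  have hT := sylowIn_top_of_sylow T
  obtain ⟨Z, v₁, v₂, g, hv, hv₂, hv₁, hg, hN⟩ := QdF.qd_data φ hT
  obtain ⟨T', hU, hctl⟩ := hc T
  have hT' := sylowIn_top_of_sylow T'
  obtain ⟨h1, h2⟩ := hv _ hT'
  obtain ⟨x, hx, hxe⟩ := (hctl {v₁} (Set.singleton_subset_iff.2 h1)).2 g (by
    rintro _ ⟨a, ha, rfl⟩
    have ha' : a = v₁ := ha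
    rw [ha']
    show g * v₁ * g⁻¹ ∈ _
    rw [hg]
    exact h2)
  have hxZ : x ∈ Subgroup.normalizer (Z : Set Γ) := by
    refine hN zjFun isCharPFunctor_zjFun ?_
    rw [inducedFunctor_zjFun]
    exact hx
  have h3 : x * v₁ * x⁻¹ = v₂ := by
    rw [← hg]
    exact (hxe v₁ rfl).symm
  apply hv₁
  rw [Subgroup.mem_normalizer_iff] at hxZ
  rw [hxZ, h3]
  exact hv₂

theorem noQd_of_not_involves (h : ¬ Cfsg.Involves ↥(Cfsg.qd p) G) : NoQd p G := by
  intro K' L hL
  exact ⟨fun iso => h ⟨K', L, hL, ⟨iso⟩⟩⟩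

theorem stable_section_of_noQd (hp : p ≠ 2) (h : NoQd p G) (K R : Subgroup G) [hR : (R.subgroupOf K).Normal] :
    IsNormalizerPStable p (↥K ⧸ R.subgroupOf K) :=
  isNormalizerPStable_of_noQd hp ((h.subgroup K).quotient _)

/-- Statement S2794. -/
theorem s2794 (hp : p ≠ 2) : ¬ Cfsg.Involves ↥(Cfsg.qd p) G ↔ ∀ (K R : Subgroup G) [hR : (R.subgroupOf K).Normal],
    ∀ T : Sylow p (K ⧸ R.subgroupOf K), Cfsg.ControlsStrongFusion p (Cfsg.centerThompsonAOf (T : Subgroup (K ⧸ R.subgroupOf K))) := by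
  constructor
  · intro hfree K R hR T
    have hNoΓ : NoQd p (↥K ⧸ R.subgroupOf K) := ((noQd_of_not_involves hfree).subgroup K).quotient _
    exact zj_controls_of_sections hp (fun K' R' hR' => by
      haveI := hR'
      exact stable_section_of_noQd hp hNoΓ K' R') T
  · rintro hc ⟨K, R, hR, ⟨φ⟩⟩
    haveI := hR
    exact not_controls_qd φ (hc K R)

/-- Statement S2795. -/
theorem s2795 (hp : p ≠ 2) : ¬ Cfsg.Involves ↥(Cfsg.qd p) G ↔ ∀ (K R : Subgroup G) [hR : (R.subgroupOf K).Normal],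
    Cfsg.IsNormalizerPStable p (K ⧸ R.subgroupOf K) := by
  constructor
  · intro hfree K R hR
    exact stable_section_of_noQd hp (noQd_of_not_involves hfree) K R
  · rintro hst ⟨K, R, hR, ⟨φ⟩⟩
    haveI := hR
    refine not_controls_qd φ (fun T => zj_controls_of_sections hp (fun K' R' hR' => ?_) T)
    obtain ⟨K'', L'', hL'', -, ⟨e⟩⟩ := QuadMat.section_trans (G := G) K (QuotientGroup.mk' _) (QuotientGroup.mk'_surjective _) K' R' hR' (MulEquiv.refl _)
    haveI := hL''
    refine Cfsg.Agent.Lib.PStableQ.stable_quotient_pprime (hst K'' L'') e.toMonoidHom e.surjective ?_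
    have h1 : e.toMonoidHom.ker = ⊥ := (MonoidHom.ker_eq_bot_iff _).2 e.injective
    rw [h1]
    simp

end Cfsg.Agent.Lib.PLocal.ZJSec
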